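/-
S4427 (helper44's project), package [W]: among the words of length `m` (`p^j ∣ m`) the number of
those with `p`-singular product is divisible by `p^(j+1-a)`.
-/
import Cfsg.Agent.Lib.Helper44.Frob3.Defs

set_option autoImplicit false

namespace Cfsg.Agent.Lib.Helper6.Frob3

universe u

/-- if every point has minimal period divisible by `d`, then `d` divides the cardinality. -/
theorem dvd_card_of_dvd_minimalPeriod {β : Type*} [Finite β] (e : Equiv.Perm β) (d : ℕ)
    (h : ∀ x, d ∣ Function.minimalPeriod (⇑e) x) : d ∣ Nat.card β := by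
  classical
  have := Fintype.ofFinite β
  have h1 := Nat.card_congr (MulAction.selfEquivSigmaOrbits (Subgroup.zpowers e) β)
  haveI : Fintype (Quotient (MulAction.orbitRel (Subgroup.zpowers e) β)) := Fintype.ofFinite _
  rw [h1, Nat.card_sigma]
  apply Finset.dvd_sum
  intro ω _
  haveI : Fintype (MulAction.orbit (Subgroup.zpowers e) ω.out) := Fintype.ofFinite _
  have h2 := MulAction.minimalPeriod_eq_card (a := e) (b := ω.out)
  rw [Nat.card_eq_fintype_card, ← h2]
  exact h ω.out

/-- the product of a rotated list is conjugate to the product. -/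
theorem orderOf_prod_rotate {G : Type*} [Group G] (l : List G) (k : ℕ) :
    orderOf (l.rotate k).prod = orderOf l.prod := by
  rw [← List.rotate_mod]
  by_cases hl : l.length = 0
  · have : l = [] := List.length_eq_zero_iff.mp hl
    subst this
    simp
  have hk : k % l.length ≤ l.length := (Nat.mod_lt _ (Nat.pos_of_ne_zero hl)).le
  rw [List.rotate_eq_drop_append_take hk, List.prod_append]
  have h1 : l.prod = (l.take (k % l.length)).prod * (l.drop (k % l.length)).prod := by
    rw [← List.prod_append, List.take_append_drop]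
  rw [h1]
  set T := (l.take (k % l.length)).prod
  set D := (l.drop (k % l.length)).prod
  exact SemiconjBy.orderOf_eq T (show SemiconjBy T (D * T) (T * D) from (mul_assoc T D T).symm)

/-- a list fixed by rotation by `d`, of length `d * e`, has product a `e`-th power. -/
theorem prod_eq_pow_of_rotate {G : Type*} [Group G] (d : ℕ) :
    ∀ (e : ℕ) (l : List G), l.length = d * e → l.rotate d = l → l.prod = (l.take d).prod ^ e := by
  intro e
  induction e with
  | zero =>
    intro l hl _
    have : l = [] := List.length_eq_zero_iff.mp (by simpa using hl)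
    subst this
    simp
  | succ e ih =>
    intro l hl hrot
    have hd : d ≤ l.length := by rw [hl]; exact Nat.le_mul_of_pos_right d (Nat.succ_pos e)
    have h1 : l.drop d ++ l.take d = l := by
      rw [← List.rotate_eq_drop_append_take hd]; exact hrot
    have h2 : l.take d ++ l.drop d = l := List.take_append_drop d l
    have hlenT : (l.take d).length = d := by simp [hd]
    have hlenD : (l.drop d).length = d * e := by
      rw [List.length_drop, hl, Nat.mul_succ]; omega
    rcases Nat.eq_zero_or_pos e with he | he
    · subst he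
      have hD : l.drop d = [] := List.length_eq_zero_iff.mp (by simpa using hlenD)
      have : l = l.take d := by
        conv_lhs => rw [← h2, hD, List.append_nil]
      rw [pow_one]
      exact congrArg List.prod this
    · -- D = l.drop d has length ≥ d
      have hdD : d ≤ (l.drop d).length := by rw [hlenD]; exact Nat.le_mul_of_pos_right d he
      -- take d of (D ++ T) = take d of D ; take d of (T ++ D) = T
      have h3 : (l.drop d).take d = l.take d := by
        have ha : (l.drop d ++ l.take d).take d = (l.drop d).take d := by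
          rw [List.take_append_of_le_length hdD]
        have hb : (l.take d ++ l.drop d).take d = l.take d := by
          rw [List.take_append_of_le_length (by rw [hlenT])]
          rw [List.take_of_length_le (by rw [hlenT])]
        rw [← ha, h1, ← hb, h2]
      -- D.rotate d = D
      have h4 : (l.drop d).rotate d = l.drop d := by
        rw [List.rotate_eq_drop_append_take hdD, h3]
        -- (D.drop d) ++ T = D : from T ++ D = D ++ T and D = T ++ D.drop d
        have hD : l.drop d = l.take d ++ (l.drop d).drop d := by
          conv_lhs => rw [← List.take_append_drop d (l.drop d), h3]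
        have h5 : l.take d ++ l.drop d = l.drop d ++ l.take d := by rw [h1, h2]
        have h6 : l.take d ++ l.drop d = l.take d ++ ((l.drop d).drop d ++ l.take d) := by
          rw [h5]
          conv_lhs => rw [hD]
          rw [List.append_assoc]
        exact (List.append_cancel_left h6).symm
      have h7 := ih (l.drop d) hlenD h4
      rw [h3] at h7
      conv_lhs => rw [← h2]
      rw [List.prod_append, h7, pow_succ']

/-- `p`-regularity of a `p^a`-th power. -/
theorem not_dvd_orderOf_pow {G : Type*} [Group G] [Finite G] (p : ℕ) (hp : p.Prime) (a : ℕ)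
    (ha : a = (Nat.card G).factorization p) (T : G) : ¬ p ∣ orderOf (T ^ (p ^ a)) := by
  have hN : Nat.card G ≠ 0 := Nat.card_pos.ne'
  have ho : orderOf T ∣ Nat.card G := orderOf_dvd_natCard T
  rw [orderOf_pow' T (pow_pos hp.pos a).ne']
  intro hdiv
  obtain ⟨s, hs, hg⟩ := (Nat.dvd_prime_pow hp).1 (Nat.gcd_dvd_right (orderOf T) (p ^ a))
  rw [hg] at hdiv
  have hgo : p ^ s ∣ orderOf T := hg ▸ Nat.gcd_dvd_left _ _
  have h1 : p ^ (s + 1) ∣ orderOf T := by
    obtain ⟨c, hc⟩ := hdiv
    have h0 : orderOf T = p ^ s * (orderOf T / p ^ s) := (Nat.mul_div_cancel' hgo).symm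
    rw [h0, hc, pow_succ]
    exact ⟨c, by ring⟩
  rcases Nat.lt_or_ge s a with h | h
  · have h2 : p ^ (s + 1) ∣ p ^ a := pow_dvd_pow p h
    have h3 : p ^ (s + 1) ∣ Nat.gcd (orderOf T) (p ^ a) := Nat.dvd_gcd h1 h2
    rw [hg] at h3
    have h4 := Nat.le_of_dvd (pow_pos hp.pos s) h3
    have h5 : p ^ s < p ^ (s + 1) := Nat.pow_lt_pow_right hp.one_lt (by omega)
    omega
  · have hsa : s = a := le_antisymm hs h
    rw [hsa, ha] at h1
    exact Nat.pow_succ_factorization_not_dvd hN hp (h1.trans ho)

theorem exists_ofFn {α : Type*} : ∀ (m : ℕ) (l : List α), l.length = m →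
    ∃ f : Fin m → α, List.ofFn f = l := by
  rintro _ l rfl
  exact ⟨l.get, List.ofFn_get l⟩

theorem pkgWords : Cfsg.Agent.Lib.Helper44.Frob3.PkgWords.{u} := by
  intro G _ _ p hp ι _ σ j m hjm
  classical
  obtain ⟨a, ha⟩ : ∃ a, a = (Nat.card G).factorization p := ⟨_, rfl⟩
  rw [← ha]
  rcases Nat.lt_or_ge j a with hja | hja
  · have h0 : j + 1 - a = 0 := by omega
    rw [h0, pow_zero]
    exact one_dvd _
  rcases Nat.eq_zero_or_pos m with hm | hm
  · subst hm
    have hE : IsEmpty {f : Fin 0 → ι // p ∣ orderOf (List.ofFn fun i => σ (f i)).prod} := by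
      constructor
      rintro ⟨f, hf⟩
      rw [List.ofFn_zero, List.prod_nil, orderOf_one] at hf
      exact hp.one_lt.ne' (Nat.dvd_one.mp hf)
    rw [Nat.card_of_isEmpty]
    exact dvd_zero _
  obtain ⟨m', rfl⟩ := hjm
  let Y := {l : List ι // l.length = p ^ j * m' ∧ p ∣ orderOf (l.map σ).prod}
  have eqv : {f : Fin (p ^ j * m') → ι // p ∣ orderOf (List.ofFn fun i => σ (f i)).prod} ≃ Y := by
    refine Equiv.ofBijective (fun f => ⟨List.ofFn f.1, List.length_ofFn, ?_⟩) ⟨?_, ?_⟩
    · rw [List.map_ofFn]
      exact f.2
    · intro f g h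
      have h1 := congrArg Subtype.val h
      exact Subtype.ext (List.ofFn_injective h1)
    · rintro ⟨l, hl, hQ⟩
      obtain ⟨f, hf⟩ := exists_ofFn _ l hl
      refine ⟨⟨f, ?_⟩, ?_⟩
      · have h1 : p ∣ orderOf ((List.ofFn f).map σ).prod := by rw [hf]; exact hQ
        rw [List.map_ofFn] at h1
        exact h1
      · exact Subtype.ext hf
  have hfin : Finite Y := Finite.of_equiv _ eqv
  rw [Nat.card_congr eqv]
  -- the rotation
  let ρ : Y → Y := fun y => ⟨y.1.rotate m', by rw [List.length_rotate]; exact y.2.1, by
    rw [List.map_rotate, orderOf_prod_rotate]; exact y.2.2⟩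
  have hiter : ∀ (k : ℕ) (y : Y), (ρ^[k] y).1 = y.1.rotate (k * m') := by
    intro k
    induction k with
    | zero => intro y; simp
    | succ k ih =>
      intro y
      rw [Function.iterate_succ_apply']
      show ((ρ^[k] y).1).rotate m' = _
      rw [ih, List.rotate_rotate]
      congr 1
      ring
  have hper : ∀ y : Y, ρ^[p ^ j] y = y := by
    intro y
    apply Subtype.ext
    rw [hiter]
    have h := List.rotate_length y.1
    rw [y.2.1] at h
    exact h
  have hpj : 0 < p ^ j := pow_pos hp.pos j
  let e : Equiv.Perm Y :=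
    { toFun := ρ
      invFun := ρ^[p ^ j - 1]
      left_inv := by
        intro y
        rw [← Function.iterate_succ_apply]
        have : (p ^ j - 1).succ = p ^ j := by omega
        rw [this]
        exact hper y
      right_inv := by
        intro y
        have h0 := Function.iterate_succ_apply' ρ (p ^ j - 1) y
        have : (p ^ j - 1).succ = p ^ j := by omega
        rw [this] at h0
        rw [← h0]
        exact hper y }
  apply dvd_card_of_dvd_minimalPeriod e
  intro y
  have h1 : Function.minimalPeriod (⇑e) y ∣ p ^ j :=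
    Function.IsPeriodicPt.minimalPeriod_dvd (hper y)
  obtain ⟨i, hi, hmp⟩ := (Nat.dvd_prime_pow hp).1 h1
  rw [hmp]
  apply pow_dvd_pow
  by_contra hcon
  have hija : i ≤ j - a := by omega
  have h2 : Function.IsPeriodicPt (⇑e) (p ^ (j - a)) y := by
    rw [Function.isPeriodicPt_iff_minimalPeriod_dvd, hmp]
    exact pow_dvd_pow p hija
  have h3 : ρ^[p ^ (j - a)] y = y := h2
  have h4 : y.1.rotate (p ^ (j - a) * m') = y.1 := by
    rw [← hiter, h3]
  have h5 : (y.1.map σ).rotate (p ^ (j - a) * m') = y.1.map σ := by
    rw [← List.map_rotate, h4]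
  have h6 : (y.1.map σ).length = p ^ (j - a) * m' * p ^ a := by
    rw [List.length_map, y.2.1]
    have : p ^ j = p ^ (j - a) * p ^ a := by
      rw [← pow_add]
      congr 1
      omega
    rw [this]
    ring
  have h7 := prod_eq_pow_of_rotate (p ^ (j - a) * m') (p ^ a) (y.1.map σ) h6 h5
  have h8 := y.2.2
  rw [h7] at h8
  exact not_dvd_orderOf_pow p hp a ha _ h8

example : Cfsg.Agent.Lib.Helper44.Frob3.PkgWords.{u} := pkgWords
example : Cfsg.Agent.Lib.Helper44.Frob3.PkgWords.{0} := pkgWords

end Cfsg.Agent.Lib.Helper6.Frob3
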